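import Mathlib

/-!
Order formulas for factorizations `G = AB` and `K = XY`.
-/

set_option autoImplicit false

namespace Cfsg.Agent.Lib.Solvable.Factorization

variable {G : Type*} [Group G]

/-- If `K = X Y` with `X ∩ Y = 1` then `|K| = |X| |Y|`. -/
theorem card_eq_mul_of_forall_mul {K X Y : Subgroup G} (hX : X ≤ K) (hY : Y ≤ K) (hinf : X ⊓ Y = ⊥)
    (h : ∀ k ∈ K, ∃ x ∈ X, ∃ y ∈ Y, k = x * y) : Nat.card K = Nat.card X * Nat.card Y := by
  rw [← Nat.card_prod]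
  symm
  refine Nat.card_congr (Equiv.ofBijective
    (fun q : X × Y => (⟨(q.1 : G) * (q.2 : G), K.mul_mem (hX q.1.2) (hY q.2.2)⟩ : K)) ⟨?_, ?_⟩)
  · rintro ⟨x₁, y₁⟩ ⟨x₂, y₂⟩ he
    have he' : (x₁ : G) * y₁ = x₂ * y₂ := congrArg Subtype.val he
    have h1 : (x₂ : G)⁻¹ * x₁ = y₂ * (y₁ : G)⁻¹ := by
      calc (x₂ : G)⁻¹ * x₁ = (x₂ : G)⁻¹ * (x₁ * y₁) * (y₁ : G)⁻¹ := by group
        _ = (x₂ : G)⁻¹ * (x₂ * y₂) * (y₁ : G)⁻¹ := by rw [he']
        _ = y₂ * (y₁ : G)⁻¹ := by group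
    have h2 : (x₂ : G)⁻¹ * x₁ ∈ X ⊓ Y :=
      ⟨X.mul_mem (X.inv_mem x₂.2) x₁.2, h1 ▸ Y.mul_mem y₂.2 (Y.inv_mem y₁.2)⟩
    rw [hinf, Subgroup.mem_bot] at h2
    have hx : (x₁ : G) = x₂ := by
      have := congrArg (fun z => (x₂ : G) * z) h2
      simpa using this
    have hy : (y₁ : G) = y₂ := by
      rw [hx] at he'
      exact mul_left_cancel he'
    ext
    · exact hx
    · exact hy
  · rintro ⟨k, hk⟩
    obtain ⟨x, hx, y, hy, rfl⟩ := h k hk
    exact ⟨(⟨x, hx⟩, ⟨y, hy⟩), rfl⟩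

/-- If `G = A B` then `|G|` divides `|A| |B|`. -/
theorem card_dvd_mul_of_forall_mul [Finite G] {A B : Subgroup G}
    (h : ∀ g : G, ∃ a ∈ A, ∃ b ∈ B, g = a * b) : Nat.card G ∣ Nat.card A * Nat.card B := by
  classical
  let x : G ⧸ B := ((1 : G) : G ⧸ B)
  have hstab : MulAction.stabilizer A x = B.subgroupOf A := by
    ext a
    rw [MulAction.mem_stabilizer_iff, Subgroup.mem_subgroupOf]
    change ((a : G) • ((1 : G) : G ⧸ B)) = _ ↔ _
    rw [MulAction.Quotient.smul_mk, smul_eq_mul, mul_one]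
    rw [QuotientGroup.eq]
    simp
  have horb : Nat.card (MulAction.orbit A x) = B.index := by
    have : MulAction.orbit A x = Set.univ := by
      rw [Set.eq_univ_iff_forall]
      intro q
      obtain ⟨g, rfl⟩ := QuotientGroup.mk_surjective q
      obtain ⟨a, ha, b, hb, rfl⟩ := h g
      refine ⟨⟨a, ha⟩, ?_⟩
      change ((a : G) • ((1 : G) : G ⧸ B)) = _
      rw [MulAction.Quotient.smul_mk, smul_eq_mul, mul_one, QuotientGroup.eq]
      simpa using hb
    rw [this, Nat.card_congr (Equiv.Set.univ _)]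
    rfl
  have hidx : (B.subgroupOf A).index = B.index := by
    rw [← hstab, MulAction.index_stabilizer]
    exact horb
  have hd : B.index ∣ Nat.card A := by
    rw [← hidx]
    exact Subgroup.index_dvd_card _
  rw [← Subgroup.card_mul_index B, mul_comm]
  exact Nat.mul_dvd_mul_right hd _

end Cfsg.Agent.Lib.Solvable.Factorization
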