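import Mathlib
import Cfsg.Agent.S1467
import Cfsg.Agent.Lib.Coprime.Three

/-!
# The Puig series, viewed inside an ambient group
-/

set_option autoImplicit false
set_option linter.style.haveILetI false
universe u v

namespace Cfsg.Agent.Lib.Solvable.Puig

open Subgroup Cfsg

section general

variable {G : Type u} [Group G]

/-- The subgroup generated by the abelian subgroups of `A` normalized by `X`. -/
def relStep (A X : Subgroup G) : Subgroup G :=
  sSup {B : Subgroup G | B ≤ A ∧ IsMulCommutative B ∧ X ≤ normalizer (B : Set G)}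

/-- The Puig series of `A`, inside `G`. -/
def relSeq (A : Subgroup G) : ℕ → Subgroup G
  | 0 => ⊥
  | n + 1 => relStep A (relSeq A n)

@[simp] theorem relSeq_zero (A : Subgroup G) : relSeq A 0 = ⊥ := rfl

theorem relSeq_succ (A : Subgroup G) (n : ℕ) : relSeq A (n + 1) = relStep A (relSeq A n) := rfl

theorem le_relStep {A X B : Subgroup G} (hB : B ≤ A) (hc : IsMulCommutative B)
    (hX : X ≤ normalizer (B : Set G)) : B ≤ relStep A X :=
  le_sSup ⟨hB, hc, hX⟩

theorem relStep_le {A X K : Subgroup G}
    (h : ∀ B : Subgroup G, B ≤ A → IsMulCommutative B → X ≤ normalizer (B : Set G) → B ≤ K) :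
    relStep A X ≤ K :=
  sSup_le fun B hB => h B hB.1 hB.2.1 hB.2.2

theorem relStep_le_self (A X : Subgroup G) : relStep A X ≤ A := relStep_le fun _ h _ _ => h

theorem relStep_mono {A A' X X' : Subgroup G} (hA : A ≤ A') (hX : X' ≤ X) :
    relStep A X ≤ relStep A' X' :=
  relStep_le fun _ hB hc hN => le_relStep (hB.trans hA) hc (hX.trans hN)

theorem isMulCommutative_map {H : Type*} [Group H] {B : Subgroup G} (hc : IsMulCommutative B)
    (f : G →* H) : IsMulCommutative (B.map f) := by
  refine ⟨⟨?_⟩⟩
  rintro ⟨_, x, hx, rfl⟩ ⟨_, y, hy, rfl⟩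
  apply Subtype.ext
  show f x * f y = f y * f x
  have := hc.is_comm.comm (⟨x, hx⟩ : B) ⟨y, hy⟩
  have h2 : x * y = y * x := congrArg Subtype.val this
  rw [← map_mul, h2, map_mul]

theorem isMulCommutative_comap {H : Type*} [Group H] {B : Subgroup H} (hc : IsMulCommutative B)
    {f : G →* H} (hf : Function.Injective f) : IsMulCommutative (B.comap f) := by
  refine ⟨⟨?_⟩⟩
  rintro ⟨x, hx⟩ ⟨y, hy⟩
  apply Subtype.ext
  apply hf
  show f (x * y) = f (y * x)
  have := hc.is_comm.comm (⟨f x, hx⟩ : B) ⟨f y, hy⟩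
  have h2 : f x * f y = f y * f x := congrArg Subtype.val this
  rw [map_mul, h2, map_mul]

theorem mem_normalizer_map {H : Type*} [Group H] (φ : G ≃* H) {B : Subgroup G} {x : G}
    (hx : x ∈ normalizer (B : Set G)) :
    φ x ∈ normalizer ((B.map φ.toMonoidHom : Subgroup H) : Set H) := by
  rw [mem_normalizer_iff]
  intro h
  obtain ⟨g, rfl⟩ := φ.surjective h
  have h1 := mem_normalizer_iff.mp hx g
  have himg : ∀ z : G, φ z ∈ B.map φ.toMonoidHom ↔ z ∈ B := by
    intro z
    constructor
    · rintro ⟨w, hw, hwz⟩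
      have : w = z := φ.injective hwz
      rwa [← this]
    · intro hz
      exact ⟨z, hz, rfl⟩
  have h2 : φ x * φ g * (φ x)⁻¹ = φ (x * g * x⁻¹) := by simp
  rw [h2, himg, himg]
  exact h1

theorem relStep_map_le {H : Type*} [Group H] (φ : G ≃* H) (A X : Subgroup G) :
    (relStep A X).map φ.toMonoidHom ≤ relStep (A.map φ.toMonoidHom) (X.map φ.toMonoidHom) := by
  rw [map_le_iff_le_comap]
  apply relStep_le
  intro B hB hc hN
  rw [← map_le_iff_le_comap]
  apply le_relStep (map_mono hB) (isMulCommutative_map hc _)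
  rintro _ ⟨x, hx, rfl⟩
  exact mem_normalizer_map φ (hN hx)

theorem map_symm_map {H : Type*} [Group H] (φ : G ≃* H) (A : Subgroup G) :
    (A.map φ.toMonoidHom).map φ.symm.toMonoidHom = A := by
  ext x
  constructor
  · rintro ⟨_, ⟨y, hy, rfl⟩, rfl⟩
    simpa using hy
  · intro hx
    exact ⟨φ x, ⟨x, hx, rfl⟩, by simp⟩

theorem map_map_symm {H : Type*} [Group H] (φ : G ≃* H) (A : Subgroup H) :
    (A.map φ.symm.toMonoidHom).map φ.toMonoidHom = A := by
  ext x
  constructor
  · rintro ⟨_, ⟨y, hy, rfl⟩, rfl⟩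
    simpa using hy
  · intro hx
    exact ⟨φ.symm x, ⟨x, hx, rfl⟩, by simp⟩

theorem relStep_map {H : Type*} [Group H] (φ : G ≃* H) (A X : Subgroup G) :
    (relStep A X).map φ.toMonoidHom = relStep (A.map φ.toMonoidHom) (X.map φ.toMonoidHom) := by
  apply le_antisymm (relStep_map_le φ A X)
  have h := relStep_map_le φ.symm (A.map φ.toMonoidHom) (X.map φ.toMonoidHom)
  rw [map_symm_map, map_symm_map] at h
  have h2 := map_mono (f := φ.toMonoidHom) h
  rwa [map_map_symm] at h2

theorem relSeq_map {H : Type*} [Group H] (φ : G ≃* H) (A : Subgroup G) (n : ℕ) :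
    (relSeq A n).map φ.toMonoidHom = relSeq (A.map φ.toMonoidHom) n := by
  induction n with
  | zero => simp
  | succ n ih => rw [relSeq_succ, relSeq_succ, relStep_map, ih]

/-- Comparison with the Puig step of a subgroup. -/
theorem map_puigStep (A : Subgroup G) (X : Subgroup A) :
    (puigStep X).map A.subtype = relStep A (X.map A.subtype) := by
  apply le_antisymm
  · rw [map_le_iff_le_comap]
    refine sSup_le fun B hB => ?_
    rw [← map_le_iff_le_comap]
    apply le_relStep (map_subtype_le B) (isMulCommutative_map hB.1 _)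
    rintro _ ⟨x, hx, rfl⟩
    have h1 := hB.2 hx
    rw [mem_normalizer_iff] at h1 ⊢
    intro g
    constructor
    · rintro ⟨y, hy, rfl⟩
      exact ⟨x * y * x⁻¹, (h1 y).mp hy, rfl⟩
    · rintro ⟨y, hy, hyg⟩
      have hgA : g = (x⁻¹ * y * x : A) := by
        show g = (x : G)⁻¹ * y * x
        have : (y : G) = x * g * (x : G)⁻¹ := hyg
        rw [this]; group
      refine ⟨x⁻¹ * y * x, ?_, hgA.symm⟩
      refine (h1 _).mpr ?_
      have h3 : x * (x⁻¹ * y * x) * x⁻¹ = y := by group
      rw [h3]; exact hy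
  · apply relStep_le
    intro B hBA hc hN
    have h1 : (B.subgroupOf A) ≤ puigStep X := by
      refine le_sSup ⟨isMulCommutative_comap hc (subtype_injective A), ?_⟩
      intro x hx
      rw [mem_normalizer_iff]
      intro g
      rw [mem_subgroupOf, mem_subgroupOf]
      exact mem_normalizer_iff.mp (hN ⟨x, hx, rfl⟩) (g : G)
    intro b hb
    exact ⟨⟨b, hBA hb⟩, h1 hb, rfl⟩

theorem map_puigSeq (A : Subgroup G) (n : ℕ) : (puigSeq A n).map A.subtype = relSeq A n := by
  induction n with
  | zero => simp [puigSeq]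
  | succ n ih =>
    show (puigStep (puigSeq A n)).map A.subtype = relStep A (relSeq A n)
    rw [map_puigStep, ih]

/-- The group-level Puig step under an isomorphism of groups. -/
theorem puigStep_eq_relStep (X : Subgroup G) : puigStep X = relStep ⊤ X := by
  unfold puigStep relStep
  congr 1
  ext B
  simp

theorem puigSeq_eq_relSeq (n : ℕ) : puigSeq G n = relSeq (⊤ : Subgroup G) n := by
  induction n with
  | zero => rfl
  | succ n ih =>
    show puigStep (puigSeq G n) = relStep ⊤ (relSeq ⊤ n)
    rw [puigStep_eq_relStep, ih]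

theorem puigSeq_map {H : Type u} [Group H] (φ : G ≃* H) (n : ℕ) :
    (puigSeq G n).map φ.toMonoidHom = puigSeq H n := by
  rw [puigSeq_eq_relSeq, puigSeq_eq_relSeq, relSeq_map]
  congr 1
  ext x
  simp only [mem_map, mem_top, true_and, iff_true]
  exact ⟨φ.symm x, by simp⟩

theorem puigSubgroup_map {H : Type u} [Group H] (φ : G ≃* H) :
    (puigSubgroup G).map φ.toMonoidHom = puigSubgroup H := by
  ext x
  constructor
  · rintro ⟨y, hy, rfl⟩
    have hy' : y ∈ ⨅ n : ℕ, puigSeq G (2 * n + 1) := hy
    have hy'' := Subgroup.mem_iInf.mp hy'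
    show φ.toMonoidHom y ∈ ⨅ n : ℕ, puigSeq H (2 * n + 1)
    refine Subgroup.mem_iInf.mpr fun n => ?_
    rw [← puigSeq_map φ]
    exact ⟨y, hy'' n, rfl⟩
  · intro hx
    have hx' : x ∈ ⨅ n : ℕ, puigSeq H (2 * n + 1) := hx
    have hx'' := Subgroup.mem_iInf.mp hx'
    refine ⟨φ.symm x, ?_, by simp⟩
    show φ.symm x ∈ ⨅ n : ℕ, puigSeq G (2 * n + 1)
    refine Subgroup.mem_iInf.mpr fun n => ?_
    have := hx'' n
    rw [← puigSeq_map φ] at this
    obtain ⟨y, hy, rfl⟩ := this
    simpa using hy

/-- Sandwich principle. -/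
theorem relSeq_sandwich {S T : Subgroup G} (hTS : T ≤ S)
    (h : ∀ n : ℕ, ∀ B : Subgroup G, B ≤ S → IsMulCommutative B →
      relSeq T (2 * n + 1) ≤ normalizer (B : Set G) → B ≤ T) (n : ℕ) :
    relSeq S (2 * n) ≤ relSeq T (2 * n) ∧ relSeq T (2 * n + 1) ≤ relSeq S (2 * n + 1) := by
  induction n with
  | zero =>
    refine ⟨by simp, ?_⟩
    exact relStep_mono hTS le_rfl
  | succ n ih =>
    have h1 : relSeq S (2 * (n + 1)) ≤ relSeq T (2 * (n + 1)) := by
      show relStep S (relSeq S (2 * n + 1)) ≤ relStep T (relSeq T (2 * n + 1))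
      apply relStep_le
      intro B hB hc hN
      exact le_relStep (h n B hB hc (ih.2.trans hN)) hc (ih.2.trans hN)
    refine ⟨h1, ?_⟩
    exact relStep_mono hTS h1

end general

section finite

variable {G : Type u} [Group G] [Finite G]

/-- The lower Puig subgroup of `A`, inside `G`. -/
def lower (A : Subgroup G) : Subgroup G := (puigLower A).map A.subtype

/-- The Puig subgroup of `A`, inside `G`. -/
def upper (A : Subgroup G) : Subgroup G := (puigSubgroup A).map A.subtype

theorem exists_stable (A : Subgroup G) : ∃ k : ℕ, ∀ n : ℕ, k ≤ n →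
    relSeq A (2 * n) = lower A ∧ relSeq A (2 * n + 1) = upper A := by
  obtain ⟨-, -, -, ⟨k, hk⟩, -, -, -⟩ := Cfsg.Agent.S1467.result (G := A)
  refine ⟨k, fun n hn => ?_⟩
  rw [← map_puigSeq, ← map_puigSeq, (hk n hn).1, (hk n hn).2]
  exact ⟨rfl, rfl⟩

theorem lower_le_upper (A : Subgroup G) : lower A ≤ upper A := by
  obtain ⟨-, -, -, -, h, -, -⟩ := Cfsg.Agent.S1467.result (G := A)
  exact map_mono h

theorem relStep_lower (A : Subgroup G) : relStep A (lower A) = upper A := by
  obtain ⟨-, -, -, -, -, h, -⟩ := Cfsg.Agent.S1467.result (G := A)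
  rw [lower, ← map_puigStep, h]
  rfl

theorem relStep_upper (A : Subgroup G) : relStep A (upper A) = lower A := by
  obtain ⟨-, -, -, -, -, -, h⟩ := Cfsg.Agent.S1467.result (G := A)
  rw [upper, ← map_puigStep, h]
  rfl

theorem relSeq_even_le_odd (A : Subgroup G) (n : ℕ) : relSeq A (2 * n) ≤ relSeq A (2 * n + 1) := by
  rw [← map_puigSeq, ← map_puigSeq]
  exact map_mono (Cfsg.Agent.S1467.seq_even_odd n)

theorem lower_le_self (A : Subgroup G) : lower A ≤ A := map_subtype_le _
theorem upper_le_self (A : Subgroup G) : upper A ≤ A := map_subtype_le _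

/-- A normal subgroup has normal Puig series. -/
theorem relSeq_normal {A : Subgroup G} (hA : A.Normal) (n : ℕ) : (relSeq A n).Normal := by
  refine ⟨fun x hx g => ?_⟩
  have hmap : A.map (MulAut.conj g).toMonoidHom = A := by
    ext y
    constructor
    · rintro ⟨z, hz, rfl⟩
      exact hA.conj_mem z hz g
    · intro hy
      refine ⟨g⁻¹ * y * g, ?_, by simp [mul_assoc]⟩
      have := hA.conj_mem y hy g⁻¹
      simpa using this
  have h := relSeq_map (MulAut.conj g) A n
  rw [hmap] at h
  rw [← h]
  exact ⟨x, hx, rfl⟩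

theorem lower_normal {A : Subgroup G} (hA : A.Normal) : (lower A).Normal := by
  obtain ⟨k, hk⟩ := exists_stable A
  rw [← (hk k le_rfl).1]
  exact relSeq_normal hA _

theorem upper_normal {A : Subgroup G} (hA : A.Normal) : (upper A).Normal := by
  obtain ⟨k, hk⟩ := exists_stable A
  rw [← (hk k le_rfl).2]
  exact relSeq_normal hA _

/-- Every term `L_{2n+1}` contains its centralizer in `A`. -/
theorem centralizer_relSeq_odd_le (A : Subgroup G) (n : ℕ) :
    A ⊓ centralizer (relSeq A (2 * n + 1) : Set G) ≤ relSeq A (2 * n + 1) := by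
  rintro x ⟨hxA, hxc⟩
  have h1 : zpowers x ≤ relStep A (relSeq A (2 * n)) := by
    apply le_relStep
    · rwa [zpowers_le]
    · infer_instance
    · intro y hy
      have hy' := relSeq_even_le_odd A n hy
      have hyx : y * x = x * y := (mem_centralizer_iff.mp hxc y hy')
      rw [mem_normalizer_iff]
      intro z
      constructor
      · rintro ⟨k, rfl⟩
        refine ⟨k, ?_⟩
        show x ^ k = y * x ^ k * y⁻¹
        have : Commute y (x ^ k) := (show Commute y x from hyx).zpow_right k
        rw [this.eq, mul_inv_cancel_right]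
      · rintro ⟨k, hk⟩
        refine ⟨k, ?_⟩
        have hk' : x ^ k = y * z * y⁻¹ := hk
        have : Commute y (x ^ k) := (show Commute y x from hyx).zpow_right k
        show x ^ k = z
        have h2 : y * z * y⁻¹ = x ^ k := hk'.symm
        have h3 : z = y⁻¹ * (x ^ k) * y := by rw [← h2]; group
        rw [h3]
        have h4 : y⁻¹ * x ^ k * y = x ^ k := by
          rw [mul_assoc, ← this.eq, inv_mul_cancel_left]
        rw [h4]
  exact h1 (mem_zpowers x)

/-- For `L(S) ≤ R ≤ S` the Puig subgroups of `R` and `S` coincide. -/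
theorem upper_eq_of_between {S R : Subgroup G} (hRS : R ≤ S) (hR : upper S ≤ R) :
    upper R = upper S ∧ lower R = lower S := by
  have hLR : lower S ≤ R := (lower_le_upper S).trans hR
  -- generators of `L_S(Y)` and `L_S(W)` lie in `R`
  have h1 : relStep R (lower S) = upper S := by
    apply le_antisymm
    · rw [← relStep_lower S]
      exact relStep_mono hRS le_rfl
    · rw [← relStep_lower S]
      apply relStep_le
      intro B hB hc hN
      have hB' : B ≤ upper S := by
        rw [← relStep_lower S]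
        exact le_relStep hB hc hN
      exact le_relStep (hB'.trans hR) hc hN
  have h2 : relStep R (upper S) = lower S := by
    apply le_antisymm
    · rw [← relStep_upper S]
      exact relStep_mono hRS le_rfl
    · rw [← relStep_upper S]
      apply relStep_le
      intro B hB hc hN
      have hB' : B ≤ lower S := by
        rw [← relStep_upper S]
        exact le_relStep hB hc hN
      exact le_relStep (hB'.trans hLR) hc hN
  have hind : ∀ n : ℕ, relSeq R (2 * n) ≤ lower S ∧ upper S ≤ relSeq R (2 * n + 1) := by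
    intro n
    induction n with
    | zero =>
      refine ⟨by simp, ?_⟩
      rw [← h1]
      exact relStep_mono le_rfl bot_le
    | succ n ih =>
      have h3 : relSeq R (2 * (n + 1)) ≤ lower S := by
        rw [← h2]
        exact relStep_mono le_rfl ih.2
      refine ⟨h3, ?_⟩
      rw [← h1]
      exact relStep_mono le_rfl h3
  have hsand := relSeq_sandwich (S := S) (T := R) hRS (by
    intro n B hB hc hN
    have h3 := (hind n).2
    have hB' : B ≤ lower S := by
      rw [← relStep_upper S]
      exact le_relStep hB hc (h3.trans hN)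
    exact hB'.trans hLR)
  obtain ⟨k1, hk1⟩ := exists_stable S
  obtain ⟨k2, hk2⟩ := exists_stable R
  set k := max k1 k2 with hk
  have hS := hk1 k (le_max_left _ _)
  have hR' := hk2 k (le_max_right _ _)
  constructor
  · apply le_antisymm
    · rw [← hS.2, ← hR'.2]
      exact (hsand k).2
    · rw [← hR'.2]
      exact (hind k).2
  · apply le_antisymm
    · rw [← hR'.1]
      exact (hind k).1
    · rw [← hS.1, ← hR'.1]
      exact (hsand k).1

/-- `Z(L(S))` in the language of `G`. -/
theorem center_upper_eq (S : Subgroup G) :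
    ((center (puigSubgroup S)).map (puigSubgroup S).subtype).map S.subtype =
      upper S ⊓ centralizer (upper S : Set G) := by
  ext x
  constructor
  · rintro ⟨_, ⟨y, hy, rfl⟩, rfl⟩
    refine Subgroup.mem_inf.mpr ⟨⟨y, y.2, rfl⟩, ?_⟩
    rw [mem_centralizer_iff]
    rintro _ ⟨w, hw, rfl⟩
    have h := (mem_center_iff.mp hy) ⟨w, hw⟩
    exact congrArg (fun t => ((t : puigSubgroup S) : S).1) h
  · intro hx
    obtain ⟨⟨y, hy, rfl⟩, hc⟩ := Subgroup.mem_inf.mp hx
    refine ⟨y, ⟨⟨y, hy⟩, ?_, rfl⟩, rfl⟩
    show (⟨y, hy⟩ : puigSubgroup S) ∈ center (puigSubgroup S)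
    rw [mem_center_iff]
    intro w
    apply Subtype.ext
    apply Subtype.ext
    exact mem_centralizer_iff.mp hc _ ⟨w, w.2, rfl⟩

end finite

end Cfsg.Agent.Lib.Solvable.Puig
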