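import Mathlib
import Cfsg.Agent.Lib.Solvable.MinimalNormal

/-!
Small tools: normal Sylow subgroups, images of Sylow subgroups in quotients, Frattini subgroup
supplements.
-/

set_option autoImplicit false

namespace Cfsg.Agent.Lib.Solvable.SylowTools

open Cfsg.Agent.Lib.Solvable.MinimalNormal

variable {G : Type*} [Group G] [Finite G]

/-- A normal `p`-subgroup of index prime to `p` is the unique Sylow `p`-subgroup. -/
theorem eq_of_normal_of_index_coprime {p : ℕ} [Fact p.Prime] {N : Subgroup G} [N.Normal]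
    (hN : IsPGroup p N) (hcop : N.index.Coprime p) (P : Sylow p G) : (P : Subgroup G) = N := by
  have hle : N ≤ P := hN.le_sylow_of_normal P
  symm
  apply le_antisymm hle
  -- the index of N in P divides both a power of p and the index of N
  have hd1 : N.relIndex P ∣ N.index := Subgroup.relIndex_dvd_index_of_normal N P
  have hd2 : N.relIndex P ∣ Nat.card P := Subgroup.relIndex_dvd_card N P
  obtain ⟨k, hk⟩ := IsPGroup.iff_card.mp P.isPGroup'
  rw [hk] at hd2
  have hc : (N.relIndex P).Coprime p := Nat.Coprime.coprime_dvd_left hd1 hcop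
  have h1 : N.relIndex P = 1 := Nat.Coprime.eq_one_of_dvd (Nat.Coprime.pow_right k hc) hd2
  exact Subgroup.relIndex_eq_one.mp h1

theorem normal_of_normal_of_index_coprime {p : ℕ} [Fact p.Prime] {N : Subgroup G} [hn : N.Normal]
    (hN : IsPGroup p N) (hcop : N.index.Coprime p) (P : Sylow p G) : (P : Subgroup G).Normal := by
  rw [eq_of_normal_of_index_coprime hN hcop P]
  exact hn

/-- If a Sylow subgroup is normal, every Sylow subgroup for that prime is. -/
theorem normal_of_one_normal {p : ℕ} [Fact p.Prime] (P Q : Sylow p G) (hP : (P : Subgroup G).Normal) :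
    (Q : Subgroup G).Normal := by
  have h := normal_of_normal_of_index_coprime (N := (P : Subgroup G)) P.isPGroup'
    (Nat.Coprime.symm ((Nat.Prime.coprime_iff_not_dvd Fact.out).mpr P.not_dvd_index)) Q
  exact h

/-- The image of a Sylow subgroup in a quotient with a normal Sylow subgroup `Qb`: `S ⊔ N` is the
preimage of `Qb`. -/
theorem sup_eq_comap_of_normal_sylow {p : ℕ} [Fact p.Prime] {N : Subgroup G} [N.Normal]
    (S : Sylow p G) (Qb : Sylow p (G ⧸ N)) (hQ : (Qb : Subgroup (G ⧸ N)).Normal) :
    (S : Subgroup G) ⊔ N = (Qb : Subgroup (G ⧸ N)).comap (QuotientGroup.mk' N) := by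
  have hsurj := QuotientGroup.mk'_surjective N
  let S' : Sylow p (G ⧸ N) := S.mapSurjective hsurj
  have hS' : (S' : Subgroup (G ⧸ N)) = Qb := by
    rw [eq_of_normal_of_index_coprime (N := (Qb : Subgroup (G ⧸ N))) Qb.isPGroup'
      (Nat.Coprime.symm ((Nat.Prime.coprime_iff_not_dvd Fact.out).mpr Qb.not_dvd_index)) S']
  rw [← hS']
  change _ = ((S : Subgroup G).map (QuotientGroup.mk' N)).comap (QuotientGroup.mk' N)
  rw [Subgroup.comap_map_eq, QuotientGroup.ker_mk']

/-- If every coatom contains `N`, and `X ⊔ N = ⊤`, then `X = ⊤`. -/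
theorem eq_top_of_sup_eq_top_of_forall_coatom {N X : Subgroup G}
    (hN : ∀ M : Subgroup G, IsCoatom M → N ≤ M) (h : X ⊔ N = ⊤) : X = ⊤ := by
  by_contra hne
  obtain ⟨M, hM, hle⟩ := (eq_top_or_exists_le_coatom X).resolve_left hne
  have := hN M hM
  apply hM.1
  rw [eq_top_iff, ← h]
  exact sup_le hle this

end Cfsg.Agent.Lib.Solvable.SylowTools
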