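import Mathlib
import Cfsg.Prelude.Def_SolvableStructure
import Cfsg.Agent.Lib.Solvable.Hall
import Cfsg.Agent.Lib.Solvable.HallSystem
import Cfsg.Agent.Lib.Solvable.MinimalNormal
import Cfsg.Agent.Lib.Solvable.Carter
import Cfsg.Agent.Lib.Nilpotent.Elements
import Cfsg.Agent.Lib.Nilpotent.Parts
import Cfsg.Agent.Lib.Coprime.Three

set_option autoImplicit false

/-!
# System normalizers of finite solvable groups

* A system normalizer avoids non-central minimal normal subgroups, hence covers central chief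
  factors and avoids the others.
* A complement system reducing into a Carter subgroup has its system normalizer in that subgroup.
* With nilpotent length at most two, Carter subgroups are exactly the system normalizers.
-/

namespace Cfsg.Agent.Lib.Solvable.SystemNormalizer

open Subgroup Cfsg.Agent.Lib.Solvable.Hall Cfsg.Agent.Lib.Solvable.HallSystem
open Cfsg.Agent.Lib.Solvable.MinimalNormal Cfsg.Agent.Lib.Solvable.Carter
open scoped commutatorElement Pointwise

universe u

variable {G : Type u} [Group G] [Finite G]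

theorem eq_bot_of_coprime_card {A B : Subgroup G} (h : (Nat.card A).Coprime (Nat.card B)) :
    A ⊓ B = ⊥ := by
  rw [Subgroup.eq_bot_iff_forall]
  intro x hx
  have h1 : orderOf x ∣ Nat.card A := Subgroup.orderOf_dvd_natCard A hx.1
  have h2 : orderOf x ∣ Nat.card B := Subgroup.orderOf_dvd_natCard B hx.2
  exact orderOf_eq_one_iff.mp (Nat.Coprime.eq_one_of_dvd (Nat.Coprime.coprime_dvd_left h1 (Nat.Coprime.coprime_dvd_right h2 h)) dvd_rfl)

/-- Elements of a system normalizer in a `q`-group normal subgroup centralize the `q`-complement. -/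
theorem commute_of_mem_of_normalizes {K B : Subgroup G} [hB : B.Normal]
    (h : (Nat.card K).Coprime (Nat.card B)) {x k : G} (hxB : x ∈ B)
    (hxK : x ∈ normalizer (K : Set G)) (hk : k ∈ K) : x * k = k * x := by
  have h1 : x * k * x⁻¹ * k⁻¹ ∈ K ⊓ B := by
    refine ⟨K.mul_mem ((mem_normalizer_iff.mp hxK k).mp hk) (K.inv_mem hk), ?_⟩
    have : x * k * x⁻¹ * k⁻¹ = x * (k * x⁻¹ * k⁻¹) := by group
    rw [this]
    exact B.mul_mem hxB (hB.conj_mem _ (B.inv_mem hxB) k)
  rw [eq_bot_of_coprime_card h, mem_bot] at h1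
  have h2 : x * k * x⁻¹ = k := by
    have := congrArg (· * k) h1
    simpa using this
  have h3 := congrArg (· * x) h2
  simpa using h3

/-- The main point: a system normalizer meets a non-central minimal normal subgroup trivially. -/
theorem eq_one_of_mem_minNormal_of_mem_systemNormalizer [Group.IsSolvable G]
    {K : Nat.Primes → Subgroup G} (hK : Cfsg.IsComplementSystem K) {B : Subgroup G}
    (hB : IsMinNormal B) (hnc : ¬ B ≤ center G) {x : G} (hxB : x ∈ B)
    (hxD : x ∈ Cfsg.systemNormalizer K) : x = 1 := by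
  classical
  haveI hBn := hB.normal
  obtain ⟨q, hq, hBq, hBc, -⟩ := hB.exists_isPGroup
  haveI : Fact q.Prime := ⟨hq⟩
  let qq : Nat.Primes := ⟨q, hq⟩
  have hKq : (Nat.card (K qq)).Coprime q := card_coprime hK qq
  have hcard : (Nat.card (K qq)).Coprime (Nat.card B) := by
    obtain ⟨a, ha⟩ := (IsPGroup.iff_card.mp hBq)
    rw [ha]
    exact Nat.Coprime.pow_right a hKq
  have hxN : x ∈ normalizer ((K qq : Subgroup G) : Set G) :=
    (Subgroup.mem_iInf.mp hxD) qq
  have hcomm : ∀ k ∈ K qq, x * k = k * x := fun k hk =>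
    commute_of_mem_of_normalizes hcard hxB hxN hk
  -- the centralizer of B
  let C : Subgroup G := centralizer (B : Set G)
  haveI hCn : C.Normal := Subgroup.normal_centralizer
  have hCtop : C ≠ ⊤ := by
    intro htop
    apply hnc
    intro b hb
    rw [mem_center_iff]
    intro g
    have : g ∈ C := by rw [htop]; trivial
    exact ((mem_centralizer_iff.mp this) b hb).symm
  haveI : Nontrivial (G ⧸ C) := QuotientGroup.nontrivial_iff.mpr hCtop
  obtain ⟨r, Rb, hr, hRbn, hRbne, hRbp, -, -⟩ := exists_normal_abelian_pSubgroup (G ⧸ C)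
  haveI := hRbn
  haveI : Fact r.Prime := ⟨hr⟩
  let R : Subgroup G := Rb.comap (QuotientGroup.mk' C)
  haveI hRn : R.Normal := Subgroup.Normal.comap hRbn _
  let M : Subgroup G := B ⊓ centralizer (R : Set G)
  haveI hMn : M.Normal := by
    haveI : (centralizer (R : Set G)).Normal := Subgroup.normal_centralizer
    infer_instance
  have hMbot : M = ⊥ := by
    rcases hB.eq_bot_or_eq M hMn inf_le_left with h | h
    · exact h
    · exfalso
      apply hRbne
      rw [Subgroup.eq_bot_iff_forall]
      intro yb hyb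
      obtain ⟨y, rfl⟩ := QuotientGroup.mk_surjective yb
      have hyR : y ∈ R := hyb
      rw [QuotientGroup.eq_one_iff]
      rw [mem_centralizer_iff]
      intro b hb
      have hbM : b ∈ M := by rw [h]; exact hb
      exact ((mem_centralizer_iff.mp hbM.2) y hyR).symm
  by_cases hrq : r = q
  · -- a nontrivial fixed point would lie in `M`
    exfalso
    subst hrq
    clear hBc
    let φ : (G ⧸ C) →* MulAut B := QuotientGroup.lift C (MulAut.conjNormal : G →* MulAut B) (by
      intro c hc
      rw [MonoidHom.mem_ker]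
      ext b
      have := (mem_centralizer_iff.mp hc) b b.2
      change c * (b : G) * c⁻¹ = b
      rw [← this]
      group)
    letI : MulAction Rb B := MulAction.compHom B (φ.comp Rb.subtype)
    have hfix1 : (1 : B) ∈ MulAction.fixedPoints Rb B := by
      intro y
      change (φ y : B ≃* B) (1 : B) = 1
      exact map_one _
    have hqdvd : r ∣ Nat.card B := by
      obtain ⟨a, ha⟩ := IsPGroup.iff_card.mp hBq
      have hne : a ≠ 0 := by
        rintro rfl
        rw [pow_zero] at ha
        exact hB.ne_bot (Subgroup.card_eq_one.mp ha)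
      rw [ha]
      exact dvd_pow_self _ hne
    obtain ⟨b, hb, hne⟩ := hRbp.exists_fixed_point_of_prime_dvd_card_of_fixed_point B hqdvd hfix1
    have hbM : (b : G) ∈ M := by
      refine Subgroup.mem_inf.mpr ⟨b.2, mem_centralizer_iff.mpr ?_⟩
      intro y hy
      have hyb : QuotientGroup.mk' C y ∈ Rb := hy
      have h1 := hb ⟨_, hyb⟩
      have h2 : (φ (QuotientGroup.mk' C y) : B ≃* B) b = b := h1
      have h3 : (MulAut.conjNormal y : B ≃* B) b = b := h2
      have h4 : y * (b : G) * y⁻¹ = b := congrArg Subtype.val h3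
      have h5 := congrArg (· * y) h4
      simpa using h5
    rw [hMbot, mem_bot] at hbM
    exact hne (Subtype.ext hbM.symm)
  · -- `R` is generated modulo `C` by elements of the complement
    have hidx : (Rb ≤ (K qq).map (QuotientGroup.mk' C)) := by
      apply le_of_coprime_index
      have h1 : ((K qq).map (QuotientGroup.mk' C)).index ∣ (K qq).index :=
        index_map_dvd _ (QuotientGroup.mk'_surjective C)
      rw [hK qq] at h1
      obtain ⟨a, ha⟩ := IsPGroup.iff_card.mp hRbp
      rw [ha]
      refine Nat.Coprime.coprime_dvd_right h1 ?_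
      exact Nat.Coprime.pow _ _ ((Nat.coprime_primes hr hq).mpr hrq)
    have hxM : x ∈ M := by
      refine Subgroup.mem_inf.mpr ⟨hxB, mem_centralizer_iff.mpr ?_⟩
      intro y hy
      obtain ⟨k, hk, hky⟩ := hidx (show QuotientGroup.mk' C y ∈ Rb from hy)
      have hc : k⁻¹ * y ∈ C := by
        rw [← QuotientGroup.eq]
        exact hky
      have h2 := (mem_centralizer_iff.mp hc) x hxB
      calc y * x = k * ((k⁻¹ * y) * x) := by group
        _ = k * (x * (k⁻¹ * y)) := by rw [h2]
        _ = (k * x) * (k⁻¹ * y) := by group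
        _ = (x * k) * (k⁻¹ * y) := by rw [hcomm k hk]
        _ = x * y := by group
    rw [hMbot, mem_bot] at hxM
    exact hxM

/-- **Covering and avoidance.** A system normalizer covers the central chief factors and avoids
the non-central ones. -/
theorem covers_and_avoids [Group.IsSolvable G] {K : Nat.Primes → Subgroup G}
    (hK : Cfsg.IsComplementSystem K) (A B : Subgroup G) [hAn : A.Normal] [hBn : B.Normal]
    (hAB : A < B) (hchief : ∀ N : Subgroup G, N.Normal → A ≤ N → N ≤ B → N = A ∨ N = B) :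
    (⁅B, (⊤ : Subgroup G)⁆ ≤ A → B ≤ A ⊔ Cfsg.systemNormalizer K) ∧
      (¬ ⁅B, (⊤ : Subgroup G)⁆ ≤ A → B ⊓ Cfsg.systemNormalizer K ≤ A) := by
  classical
  let f := QuotientGroup.mk' A
  have hf : Function.Surjective f := QuotientGroup.mk'_surjective A
  have hsn := systemNormalizer_map_mk hK A
  have hfc : ∀ x : G, f x = 1 ↔ x ∈ A := fun x => QuotientGroup.eq_one_iff x
  constructor
  · intro h x hxB
    have hcen : ∀ g : G, f x * f g = f g * f x := by
      intro g
      have h1 : ⁅x, g⁆ ∈ A := h (Subgroup.commutator_mem_commutator hxB (mem_top g))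
      have h2 : f ⁅x, g⁆ = 1 := (hfc _).mpr h1
      rw [commutatorElement_def, map_mul, map_mul, map_inv, map_inv] at h2
      have h3 := congrArg (· * f g * f x) h2
      simpa [mul_assoc] using h3
    have h1 : f x ∈ Cfsg.systemNormalizer (fun p => (K p).map f) := by
      rw [Cfsg.systemNormalizer, Subgroup.mem_iInf]
      intro p
      rw [mem_normalizer_iff]
      intro y
      obtain ⟨g, rfl⟩ := hf y
      have : f x * f g * (f x)⁻¹ = f g := by
        rw [hcen g]
        group
      rw [this]
    rw [hsn] at h1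
    obtain ⟨d, hd, hdx⟩ := h1
    have h2 : d⁻¹ * x ∈ A := QuotientGroup.eq.mp hdx
    have h3 : x = d * (d⁻¹ * x) := by group
    rw [h3]
    exact Subgroup.mul_mem _ (Subgroup.mem_sup_right hd) (Subgroup.mem_sup_left h2)
  · intro h x hx
    have hmin : IsMinNormal (B.map f) := by
      refine ⟨hBn.map f hf, ?_, ?_⟩
      · intro hb
        rw [Subgroup.map_eq_bot_iff, QuotientGroup.ker_mk'] at hb
        exact absurd hb (not_le_of_gt hAB)
      · intro M hM hle
        have hco : (M.comap f).Normal := hM.comap f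
        have hA1 : A ≤ M.comap f := by
          intro a ha
          change f a ∈ M
          rw [(hfc a).mpr ha]
          exact M.one_mem
        have hB1 : M.comap f ≤ B := by
          intro y hy
          obtain ⟨b, hb, hby⟩ := hle hy
          have : b⁻¹ * y ∈ A := QuotientGroup.eq.mp hby
          have e : y = b * (b⁻¹ * y) := by group
          rw [e]
          exact B.mul_mem hb (hAB.le this)
        rcases hchief _ hco hA1 hB1 with h1 | h1
        · left
          have := Subgroup.map_comap_eq_self_of_surjective hf M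
          rw [h1] at this
          rw [← this, Subgroup.map_eq_bot_iff, QuotientGroup.ker_mk']
        · right
          have := Subgroup.map_comap_eq_self_of_surjective hf M
          rw [h1] at this
          exact this.symm
    have hnc : ¬ B.map f ≤ center (G ⧸ A) := by
      intro hc
      apply h
      rw [Subgroup.commutator_le]
      intro b hb g _
      rw [← hfc]
      simp only [commutatorElement_def, map_mul, map_inv]
      have h1 := (mem_center_iff.mp (hc ⟨b, hb, rfl⟩)) (f g)
      rw [← h1]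
      group
    have h1 := eq_one_of_mem_minNormal_of_mem_systemNormalizer (isComplementSystem_map_mk hK A) hmin
      hnc (x := f x) ⟨x, hx.1, rfl⟩ (by rw [hsn]; exact ⟨x, hx.2, rfl⟩)
    exact (hfc x).mp h1

/-- The image of a Carter subgroup in a quotient of a finite solvable group is Carter. -/
theorem isCarter_map_mk [Group.IsSolvable G] {C : Subgroup G} (hC : Cfsg.IsCarterSubgroup C)
    (N : Subgroup G) [N.Normal] : Cfsg.IsCarterSubgroup (C.map (QuotientGroup.mk' N)) := by
  refine isCarter_map hC ?_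
  intro x hx
  let L := C ⊔ N
  have hCL : C ≤ L := le_sup_left
  have hC' : Cfsg.IsCarterSubgroup (MulAut.conj x • C) := isCarter_conj hC x
  have hCL' : MulAut.conj x • C ≤ L := by
    have h1 : MulAut.conj x • C ≤ MulAut.conj x • L :=
      Subgroup.pointwise_smul_le_pointwise_smul_iff.mpr hCL
    rwa [hx] at h1
  obtain ⟨y, hy⟩ := carter_conj L _ _ (isCarter_subgroupOf hC' hCL') (isCarter_subgroupOf hC hCL)
  have h2 := conj_smul_of_subgroupOf hCL' hCL y hy
  refine ⟨(y : G)⁻¹, L.inv_mem y.2, ?_⟩
  rw [map_inv]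
  exact eq_inv_smul_iff.mpr h2

/-- `K` reduces into `C`: each member `K q` contains all `q'`-elements of `C`. -/
def Reduces (K : Nat.Primes → Subgroup G) (C : Subgroup G) : Prop :=
  ∀ q : Nat.Primes, ∀ c ∈ C, (orderOf c).Coprime (q : ℕ) → c ∈ K q

/-- An element of order dividing both a power of `q` and a number prime to `q` is trivial. -/
theorem eq_one_of_pow_of_coprime {Y : Type*} [Group Y] {q k : ℕ} {y : Y} (h1 : y ^ q ^ k = 1)
    (h2 : (orderOf y).Coprime q) : y = 1 := by
  have h3 : orderOf y ∣ q ^ k := orderOf_dvd_of_pow_eq_one h1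
  exact orderOf_eq_one_iff.mp (Nat.Coprime.eq_one_of_dvd (Nat.Coprime.pow_right k h2) h3)

/-- Reduction passes to quotients. -/
theorem Reduces.map_mk {K : Nat.Primes → Subgroup G} {C : Subgroup G} (h : Reduces K C)
    (N : Subgroup G) [N.Normal] :
    Reduces (fun p => (K p).map (QuotientGroup.mk' N)) (C.map (QuotientGroup.mk' N)) := by
  rintro q _ ⟨c, hc, rfl⟩ hcop
  haveI : Fact (q : ℕ).Prime := ⟨q.2⟩
  obtain ⟨y, z, rfl, hy, hz, ⟨k, hk⟩, hzc⟩ := Cfsg.Agent.Lib.Nilpotent.Parts.exists_parts c (q : ℕ)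
  have hzC : z ∈ C := (Subgroup.zpowers_le.mpr hc) hz
  have hzK : z ∈ K q := h q z hzC hzc
  have h1 : QuotientGroup.mk' N y = 1 := by
    apply eq_one_of_pow_of_coprime (q := (q : ℕ)) (k := k)
    · rw [← map_pow, hk, map_one]
    · obtain ⟨j, hj⟩ := hy
      have h2 : QuotientGroup.mk' N y = (QuotientGroup.mk' N (y * z)) ^ j := by
        rw [← map_zpow]
        exact congrArg _ hj.symm
      rw [h2]
      refine Nat.Coprime.coprime_dvd_left (orderOf_dvd_of_pow_eq_one ?_) hcop
      rw [← zpow_natCast, ← zpow_mul, mul_comm, zpow_mul, zpow_natCast, pow_orderOf_eq_one, one_zpow]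
  refine ⟨z, hzK, ?_⟩
  rw [map_mul, h1, one_mul]

/-- An element of a normal `q`-subgroup centralizing the `q'`-part of a Carter subgroup lies in the
Carter subgroup. -/
theorem mem_of_commute_ppPart {C N : Subgroup G} [hNn : N.Normal] (hC : Cfsg.IsCarterSubgroup C)
    {q : ℕ} [hq : Fact q.Prime] (hN : IsPGroup q N) {n : G} (hn : n ∈ N)
    (hW : ∀ w ∈ ppPart q C, w * n = n * w) : n ∈ C := by
  classical
  obtain ⟨hnil, hnorm⟩ := hC
  haveI := hnil
  let P : Sylow q C := default
  let Cq : Subgroup G := (P : Subgroup C).map C.subtype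
  have hCqp : IsPGroup q Cq := P.isPGroup'.map _
  have hCqC : Cq ≤ C := by
    rintro _ ⟨y, -, rfl⟩
    exact y.2
  have hmemCq : ∀ x ∈ C, ∀ k : ℕ, x ^ q ^ k = 1 → x ∈ Cq := by
    intro x hx k hk
    refine ⟨⟨x, hx⟩, ?_, rfl⟩
    apply Cfsg.Agent.Lib.Nilpotent.Elements.mem_sylow_of_pow_eq_one (k := k)
    exact Subtype.ext hk
  have hcomm : ∀ a ∈ Cq, ∀ w ∈ ppPart q C, w * a = a * w := by
    rintro a ha w hw
    have hwC := (mem_ppPart_iff hnil).mp hw
    obtain ⟨k, hk⟩ := hCqp ⟨a, ha⟩
    have hk' : a ^ q ^ k = 1 := congrArg Subtype.val hk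
    have hco : (orderOf (⟨w, hwC.1⟩ : C)).Coprime (orderOf (⟨a, hCqC ha⟩ : C)) := by
      rw [Subgroup.orderOf_mk, Subgroup.orderOf_mk]
      exact Nat.Coprime.coprime_dvd_right (orderOf_dvd_of_pow_eq_one hk')
        (Nat.Coprime.pow_right k hwC.2)
    have := Cfsg.Agent.Lib.Nilpotent.Elements.commute_of_coprime_orderOf hco
    exact congrArg Subtype.val this.eq
  let V : Subgroup G := (Cq ⊔ N) ⊓ centralizer (ppPart q C : Set G)
  have hVq : IsPGroup q V := (IsPGroup.to_sup_of_normal_right hCqp hN).to_le inf_le_left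
  have hCqV : Cq ≤ V := fun a ha =>
    Subgroup.mem_inf.mpr ⟨Subgroup.mem_sup_left ha, mem_centralizer_iff.mpr (hcomm a ha)⟩
  have hnV : n ∈ V :=
    Subgroup.mem_inf.mpr ⟨Subgroup.mem_sup_right hn, mem_centralizer_iff.mpr hW⟩
  haveI hVnil : Group.IsNilpotent V := hVq.isNilpotent
  have htop : Cq.subgroupOf V = ⊤ := by
    apply eq_top_of_normalizer_eq_of_nilpotent
    apply le_antisymm _ Subgroup.le_normalizer
    intro v hv
    have hvconj : ∀ a ∈ Cq, (v : G) * a * (v : G)⁻¹ ∈ Cq := by
      intro a ha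
      have h1 := (mem_normalizer_iff.mp hv ⟨a, hCqV ha⟩).mp (Subgroup.mem_subgroupOf.mpr ha)
      exact Subgroup.mem_subgroupOf.mp h1
    have hvW : ∀ w ∈ ppPart q C, (v : G) * w * (v : G)⁻¹ = w := by
      intro w hw
      have h1 := (mem_centralizer_iff.mp (Subgroup.mem_inf.mp v.2).2) w hw
      rw [← h1]
      group
    have hvC : (v : G) ∈ C := by
      rw [← SetLike.mem_coe, ← hnorm, SetLike.mem_coe]
      apply mem_normalizer_of_forall_conj_mem
      intro x hx
      obtain ⟨y, z, rfl, hy, hz, ⟨k, hk⟩, hzc⟩ :=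
        Cfsg.Agent.Lib.Nilpotent.Parts.exists_parts x q
      have hyC : y ∈ C := (Subgroup.zpowers_le.mpr hx) hy
      have hzC : z ∈ C := (Subgroup.zpowers_le.mpr hx) hz
      have e : (v : G) * (y * z) * (v : G)⁻¹ = ((v : G) * y * (v : G)⁻¹) * ((v : G) * z * (v : G)⁻¹) := by
        group
      rw [e, hvW z ((mem_ppPart_iff hnil).mpr ⟨hzC, hzc⟩)]
      exact C.mul_mem (hCqC (hvconj y (hmemCq y hyC k hk))) hzC
    obtain ⟨k, hk⟩ := hVq v
    have hk' : (v : G) ^ q ^ k = 1 := congrArg Subtype.val hk
    exact Subgroup.mem_subgroupOf.mpr (hmemCq _ hvC k hk')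
  have h1 : (⟨n, hnV⟩ : V) ∈ Cq.subgroupOf V := by rw [htop]; trivial
  exact hCqC (Subgroup.mem_subgroupOf.mp h1)

/-- **Carter's theorem on reduction**: if the complement system `K` reduces into the Carter subgroup
`C`, then the system normalizer of `K` lies in `C`. -/
theorem systemNormalizer_le_of_reduces : ∀ (c : ℕ) (G : Type u) [Group G] [Finite G]
    [Group.IsSolvable G], Nat.card G = c → ∀ (C : Subgroup G) (K : Nat.Primes → Subgroup G),
    Cfsg.IsCarterSubgroup C → Cfsg.IsComplementSystem K → Reduces K C →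
    Cfsg.systemNormalizer K ≤ C := by
  intro c
  induction c using Nat.strong_induction_on with
  | _ c ih =>
  intro G _ _ _ hcard C K hC hK hR x hx
  classical
  rcases subsingleton_or_nontrivial G with hsub | hnt
  · rw [Subsingleton.elim x 1]
    exact C.one_mem
  obtain ⟨N, hN⟩ := exists_isMinNormal (G := G)
  haveI hNn := hN.normal
  obtain ⟨q, hq, hNq, -, -⟩ := hN.exists_isPGroup
  haveI : Fact q.Prime := ⟨hq⟩
  let qq : Nat.Primes := ⟨q, hq⟩
  have hlt : Nat.card (G ⧸ N) < c := hcard ▸ card_quotient_lt N hN.ne_bot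
  have h1 := ih _ hlt (G ⧸ N) rfl (C.map (QuotientGroup.mk' N)) _ (isCarter_map_mk hC N)
    (isComplementSystem_map_mk hK N) (hR.map_mk N)
  rw [systemNormalizer_map_mk hK N] at h1
  obtain ⟨c, hc, hcx⟩ := h1 ⟨x, hx, rfl⟩
  have hn : c⁻¹ * x ∈ N := QuotientGroup.eq.mp hcx
  have hxeq : x = c * (c⁻¹ * x) := by group
  have hnil := hC.1
  suffices hnC : c⁻¹ * x ∈ C by
    rw [hxeq]
    exact C.mul_mem hc hnC
  have hxN : x ∈ normalizer ((K qq : Subgroup G) : Set G) := (Subgroup.mem_iInf.mp hx) qq
  have hKq : (Nat.card (K qq)).Coprime q := card_coprime hK qq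
  have hKN : K qq ⊓ N = ⊥ := by
    apply eq_bot_of_coprime_card
    obtain ⟨a, ha⟩ := IsPGroup.iff_card.mp hNq
    rw [ha]
    exact Nat.Coprime.pow_right a hKq
  have hWK : ppPart q C ≤ K qq := fun w hw =>
    hR qq w ((mem_ppPart_iff hnil).mp hw).1 ((mem_ppPart_iff hnil).mp hw).2
  -- elements of `K q` in `C ⊔ N` lie in `C`
  have hsupK : ∀ w ∈ K qq, ∀ a ∈ C, ∀ b ∈ N, w = a * b → w ∈ C := by
    intro w hw a ha b hb hwab
    obtain ⟨a₁, a₂, rfl, ha₁, ha₂, ⟨k, hk⟩, ha₂c⟩ :=
      Cfsg.Agent.Lib.Nilpotent.Parts.exists_parts a q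
    have ha₂C : a₂ ∈ C := (Subgroup.zpowers_le.mpr ha) ha₂
    have ha₂K : a₂ ∈ K qq := hR qq a₂ ha₂C ha₂c
    let e : G := w * a₂⁻¹
    have heK : e ∈ K qq := (K qq).mul_mem hw ((K qq).inv_mem ha₂K)
    have hemk : (QuotientGroup.mk' N) e = (QuotientGroup.mk' N) a₁ := by
      rw [QuotientGroup.mk'_apply, QuotientGroup.mk'_apply]
      symm
      rw [QuotientGroup.eq]
      have e1 : a₁⁻¹ * e = a₂ * b * a₂⁻¹ := by
        simp only [e, hwab]
        group
      rw [e1]
      exact hNn.conj_mem b hb a₂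
    have he1 : (QuotientGroup.mk' N) e = 1 := by
      apply eq_one_of_pow_of_coprime (q := q) (k := k)
      · rw [hemk, ← map_pow, hk, map_one]
      · have h2 : orderOf ((QuotientGroup.mk' N) e) ∣ orderOf e := orderOf_map_dvd _ _
        have h3 : orderOf e ∣ Nat.card (K qq) := Subgroup.orderOf_dvd_natCard _ heK
        exact Nat.Coprime.coprime_dvd_left (h2.trans h3) hKq
    have heN : e ∈ N := (QuotientGroup.eq_one_iff e).mp he1
    have he : e ∈ K qq ⊓ N := ⟨heK, heN⟩
    rw [hKN, mem_bot] at he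
    have hwa : w = a₂ := by
      have := congrArg (· * a₂) he
      simpa [e] using this
    rw [hwa]
    exact ha₂C
  have hxW : x ∈ normalizer ((ppPart q C : Subgroup G) : Set G) := by
    apply mem_normalizer_of_forall_conj_mem
    intro w hw
    have hwC := (mem_ppPart_iff hnil).mp hw
    rw [mem_ppPart_iff hnil]
    refine ⟨?_, by rw [orderOf_conj_eq]; exact hwC.2⟩
    have hwK : x * w * x⁻¹ ∈ K qq := (mem_normalizer_iff.mp hxN w).mp (hWK hw)
    have hdec : x * w * x⁻¹ = (c * ((c⁻¹ * x) * w * (c⁻¹ * x)⁻¹ * w⁻¹) * c⁻¹) * (c * w * c⁻¹) := by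
      group
    have hwN : (c⁻¹ * x) * w * (c⁻¹ * x)⁻¹ * w⁻¹ ∈ N := by
      have e1 : (c⁻¹ * x) * w * (c⁻¹ * x)⁻¹ * w⁻¹ = (c⁻¹ * x) * (w * (c⁻¹ * x)⁻¹ * w⁻¹) := by group
      rw [e1]
      exact N.mul_mem hn (hNn.conj_mem _ (N.inv_mem hn) w)
    have hb : c * w * c⁻¹ * ((c * w * c⁻¹)⁻¹ * (c * ((c⁻¹ * x) * w * (c⁻¹ * x)⁻¹ * w⁻¹) * c⁻¹) * (c * w * c⁻¹)) =
        x * w * x⁻¹ := by
      rw [hdec]
      group
    refine hsupK _ hwK (c * w * c⁻¹) (C.mul_mem (C.mul_mem hc hwC.1) (C.inv_mem hc)) _ ?_ hb.symm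
    have h5 := hNn.conj_mem _ (hNn.conj_mem _ hwN c) (c * w * c⁻¹)⁻¹
    rwa [inv_inv] at h5
  have hnW : c⁻¹ * x ∈ normalizer ((ppPart q C : Subgroup G) : Set G) :=
    Subgroup.mul_mem _ (Subgroup.inv_mem _ (le_normalizer_ppPart hnil hc)) hxW
  have hcop : (Nat.card (ppPart q C)).Coprime (Nat.card N) := by
    obtain ⟨a, ha⟩ := IsPGroup.iff_card.mp hNq
    rw [ha]
    exact Nat.Coprime.pow_right a (card_ppPart_coprime q C)
  apply mem_of_commute_ppPart hC hNq hn
  intro w hw
  exact (commute_of_mem_of_normalizes hcop hn hnW hw).symm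

/-- Each nilpotent subgroup of a finite solvable group admits a complement system reducing into
it. -/
theorem exists_isComplementSystem_reduces [Group.IsSolvable G] {C : Subgroup G}
    (hC : Group.IsNilpotent C) :
    ∃ K : Nat.Primes → Subgroup G, Cfsg.IsComplementSystem K ∧ Reduces K C := by
  classical
  have key : ∀ p : Nat.Primes, ∃ H : Subgroup G,
      H.index = (p : ℕ) ^ (Nat.card G).factorization p ∧
        ∀ c ∈ C, (orderOf c).Coprime (p : ℕ) → c ∈ H := by
    intro p
    haveI : Fact (p : ℕ).Prime := ⟨p.2⟩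
    set n := (p : ℕ) ^ (Nat.card G).factorization p with hn
    set m := Nat.card G / n with hm
    have hG : Nat.card G = m * n := (Nat.div_mul_cancel (Nat.ordProj_dvd _ _)).symm
    have hmn : m.Coprime n :=
      ((Nat.coprime_ordCompl p.2 Nat.card_pos.ne').pow_left _).symm
    obtain ⟨H, hH, hle⟩ := exists_le_card_eq m n hG hmn (ppPart (p : ℕ) C)
      (Nat.Coprime.pow_right _ (card_ppPart_coprime _ C))
    refine ⟨H, ?_, fun c hc hcop => hle ((mem_ppPart_iff hC).mpr ⟨hc, hcop⟩)⟩
    have h1 := card_mul_index H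
    rw [hH, hG] at h1
    have hmpos : 0 < m := by
      rcases Nat.eq_zero_or_pos m with h0 | h0
      · rw [h0, zero_mul] at hG
        exact absurd hG Nat.card_pos.ne'
      · exact h0
    exact Nat.eq_of_mul_eq_mul_left hmpos h1
  choose K hK hKr using key
  exact ⟨K, hK, hKr⟩

/-- Every Carter subgroup contains a system normalizer. -/
theorem carter_contains_systemNormalizer [Group.IsSolvable G] {C : Subgroup G}
    (hC : Cfsg.IsCarterSubgroup C) :
    ∃ K : Nat.Primes → Subgroup G, Cfsg.IsComplementSystem K ∧ Cfsg.systemNormalizer K ≤ C := by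
  obtain ⟨K, hK, hR⟩ := exists_isComplementSystem_reduces hC.1
  exact ⟨K, hK, systemNormalizer_le_of_reduces _ G rfl C K hC hK hR⟩

/-- Every system normalizer lies in a Carter subgroup. -/
theorem systemNormalizer_le_carter [Group.IsSolvable G] {K : Nat.Primes → Subgroup G}
    (hK : Cfsg.IsComplementSystem K) :
    ∃ C : Subgroup G, Cfsg.IsCarterSubgroup C ∧ Cfsg.systemNormalizer K ≤ C := by
  obtain ⟨C₀, hC₀⟩ := exists_carter G
  obtain ⟨K₀, hK₀, hle⟩ := carter_contains_systemNormalizer hC₀
  obtain ⟨g, hg⟩ := exists_conj hK₀ hK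
  refine ⟨MulAut.conj g • C₀, isCarter_conj hC₀ g, ?_⟩
  intro x hx
  rw [mem_conj_smul]
  apply hle
  rw [Cfsg.systemNormalizer, Subgroup.mem_iInf] at hx ⊢
  intro p
  have h1 := (mem_normalizer_iff_map_conj _ _).mp (hx p)
  rw [mem_normalizer_iff_map_conj]
  rw [← hg p] at h1
  have h2 := congrArg (fun X : Subgroup G => X.map (MulAut.conj g⁻¹).toMonoidHom) h1
  simp only [map_conj_map_conj] at h2
  have e1 : g⁻¹ * (x * g) = g⁻¹ * x * g := by group
  rw [e1] at h2
  rw [inv_mul_cancel] at h2
  have e2 : (K₀ p).map (MulAut.conj (1 : G)).toMonoidHom = K₀ p := by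
    ext y
    simp [MulAut.conj_apply]
  rw [e2] at h2
  exact h2

/-- A group with a nilpotent normal subgroup and nilpotent quotient is solvable. -/
theorem isSolvable_of_nilpotent_nilpotent (F : Subgroup G) [F.Normal] (hF : Group.IsNilpotent F)
    (hGF : Group.IsNilpotent (G ⧸ F)) : Group.IsSolvable G := by
  haveI := hF
  haveI := hGF
  refine solvable_of_ker_le_range F.subtype (QuotientGroup.mk' F) ?_
  rw [QuotientGroup.ker_mk', Subgroup.range_subtype]

/-- With nilpotent length at most two, a Carter subgroup meets every non-central minimal normal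
subgroup trivially. -/
theorem inf_eq_bot_of_not_central [Group.IsSolvable G] {F N C : Subgroup G} [hFn : F.Normal]
    (hF : Group.IsNilpotent F) (hGF : Group.IsNilpotent (G ⧸ F)) (hN : IsMinNormal N)
    (hnc : ¬ N ≤ center G) (hC : Cfsg.IsCarterSubgroup C) : C ⊓ N = ⊥ := by
  classical
  haveI hNn := hN.normal
  have hcentral : ∀ M : Subgroup G, N ≤ centralizer (M : Set G) → M = ⊤ → False := by
    intro M hM hMt
    apply hnc
    intro y hy
    rw [mem_center_iff]
    intro g
    have hg : g ∈ M := by rw [hMt]; trivial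
    exact ((mem_centralizer_iff.mp (hM hy)) g hg)
  -- `N` lies in `F`
  have hNF : N ≤ F := by
    by_contra hNF
    rcases hN.eq_bot_or_eq ⁅N, (⊤ : Subgroup G)⁆ (Subgroup.commutator_normal _ _)
      (Subgroup.commutator_le_left _ _) with h | h
    · apply hcentral ⊤ _ rfl
      rw [← Subgroup.commutator_eq_bot_iff_le_centralizer]
      exact h
    · have hmapne : N.map (QuotientGroup.mk' F) ≠ ⊥ := by
        rw [Ne, Subgroup.map_eq_bot_iff, QuotientGroup.ker_mk']
        exact hNF
      apply Cfsg.Agent.Lib.Coprime.Three.commutator_ne_of_isNilpotent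
        (T := (⊤ : Subgroup (G ⧸ F))) (Group.isNilpotent_top.mpr hGF) le_top hmapne
      rw [← Subgroup.map_top_of_surjective (QuotientGroup.mk' F) (QuotientGroup.mk'_surjective F),
        ← Subgroup.map_commutator, h]
  -- `F` centralizes `N`
  have hNFc : ⁅N, F⁆ = ⊥ := by
    rcases hN.eq_bot_or_eq ⁅N, F⁆ (Subgroup.commutator_normal _ _)
      (Subgroup.commutator_le_left _ _) with h | h
    · exact h
    · exact absurd h (Cfsg.Agent.Lib.Coprime.Three.commutator_ne_of_isNilpotent hF hNF hN.ne_bot)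
  have hFcen : N ≤ centralizer (F : Set G) :=
    Subgroup.commutator_eq_bot_iff_le_centralizer.mp hNFc
  -- `C ⊔ F = ⊤`
  have hsup : C ⊔ F = ⊤ := by
    have h1 := (isCarter_map_mk hC F).2
    haveI := hGF
    have h2 := eq_top_of_normalizer_eq_of_nilpotent h1
    have h3 := congrArg (Subgroup.comap (QuotientGroup.mk' F)) h2
    rwa [Subgroup.comap_map_eq, QuotientGroup.ker_mk', Subgroup.comap_top] at h3
  -- normality criterion
  have hnormal : ∀ M : Subgroup G, M ≤ N → (∀ c ∈ C, ∀ y ∈ M, c * y * c⁻¹ ∈ M) → M.Normal := by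
    intro M hMN hM
    rw [← Subgroup.normalizer_eq_top_iff, eq_top_iff, ← hsup]
    apply sup_le
    · intro c hc
      exact mem_normalizer_of_forall_conj_mem (hM c hc)
    · intro f hf
      apply mem_normalizer_of_forall_conj_mem
      intro y hy
      have h1 := (mem_centralizer_iff.mp (hFcen (hMN hy))) f hf
      have h2 : f * y * f⁻¹ = y := by
        rw [h1]
        group
      rw [h2]
      exact hy
  have hinfn : (C ⊓ N).Normal := by
    apply hnormal _ inf_le_right
    intro c hc y hy
    exact ⟨C.mul_mem (C.mul_mem hc hy.1) (C.inv_mem hc), hNn.conj_mem y hy.2 c⟩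
  rcases hN.eq_bot_or_eq _ hinfn inf_le_right with h | h
  · exact h
  · exfalso
    have hNC : N ≤ C := inf_eq_right.mp h
    have hne := Cfsg.Agent.Lib.Coprime.Three.commutator_ne_of_isNilpotent hC.1 hNC hN.ne_bot
    have hcn : (⁅N, C⁆ : Subgroup G).Normal := by
      apply hnormal _ (Subgroup.commutator_le_left _ _)
      intro c hc y hy
      have h1 : (MulAut.conj c).toMonoidHom y ∈ (⁅N, C⁆ : Subgroup G).map (MulAut.conj c).toMonoidHom :=
        ⟨y, hy, rfl⟩
      have h2 : N.map (MulAut.conj c).toMonoidHom = N :=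
        (mem_normalizer_iff_map_conj N c).mp (by
          rw [Subgroup.normalizer_eq_top_iff.mpr hNn]; trivial)
      rw [Subgroup.map_commutator, h2, map_conj_eq_self hc] at h1
      exact h1
    rcases hN.eq_bot_or_eq _ hcn (Subgroup.commutator_le_left _ _) with h1 | h1
    · have hCcen : N ≤ centralizer (C : Set G) :=
        Subgroup.commutator_eq_bot_iff_le_centralizer.mp h1
      apply hcentral (C ⊔ F) _ hsup
      intro y hy
      rw [mem_centralizer_iff]
      have hle : C ⊔ F ≤ centralizer ({y} : Set G) := by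
        apply sup_le
        · intro c hc
          rw [mem_centralizer_iff]
          rintro _ rfl
          exact (mem_centralizer_iff.mp (hCcen hy) c hc).symm
        · intro f hf
          rw [mem_centralizer_iff]
          rintro _ rfl
          exact (mem_centralizer_iff.mp (hFcen hy) f hf).symm
      intro g hg
      exact (mem_centralizer_iff.mp (hle hg) y rfl).symm
    · exact hne h1

/-- The key inclusion for groups of nilpotent length at most two: a Carter subgroup containing a
system normalizer equals it. -/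
theorem le_systemNormalizer_of_nilpotent_nilpotent : ∀ (c : ℕ) (G : Type u) [Group G] [Finite G],
    Nat.card G = c → ∀ (F : Subgroup G) [F.Normal], Group.IsNilpotent F → Group.IsNilpotent (G ⧸ F) →
    ∀ (C : Subgroup G) (K : Nat.Primes → Subgroup G),
    Cfsg.IsCarterSubgroup C → Cfsg.IsComplementSystem K → Cfsg.systemNormalizer K ≤ C →
    C ≤ Cfsg.systemNormalizer K := by
  intro c
  induction c using Nat.strong_induction_on with
  | _ c ih =>
  intro G _ _ hcard F _ hF hGF C K hC hK hle x hx
  classical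
  haveI hsol : Group.IsSolvable G := isSolvable_of_nilpotent_nilpotent F hF hGF
  rcases subsingleton_or_nontrivial G with hsub | hnt
  · rw [Subsingleton.elim x 1]
    exact Subgroup.one_mem _
  obtain ⟨N, hN⟩ := exists_isMinNormal (G := G)
  haveI hNn := hN.normal
  let f := QuotientGroup.mk' N
  have hf : Function.Surjective f := QuotientGroup.mk'_surjective N
  have hlt : Nat.card (G ⧸ N) < c := hcard ▸ card_quotient_lt N hN.ne_bot
  haveI hFbar : (F.map f).Normal := Subgroup.Normal.map inferInstance f hf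
  have hFbarnil : Group.IsNilpotent (F.map f) := by
    haveI := hF
    exact Group.nilpotent_of_surjective (f.subgroupMap F) (f.subgroupMap_surjective F)
  have hGbarnil : Group.IsNilpotent ((G ⧸ N) ⧸ F.map f) := by
    haveI := hGF
    let h : G ⧸ F →* (G ⧸ N) ⧸ F.map f :=
      QuotientGroup.lift F ((QuotientGroup.mk' (F.map f)).comp f) (by
        intro y hy
        rw [MonoidHom.mem_ker, MonoidHom.comp_apply, QuotientGroup.mk'_apply, QuotientGroup.eq_one_iff]
        exact ⟨y, hy, rfl⟩)
    have hs : Function.Surjective h := by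
      intro z
      obtain ⟨w, rfl⟩ := QuotientGroup.mk_surjective z
      obtain ⟨y, rfl⟩ := hf w
      exact ⟨(y : G ⧸ F), rfl⟩
    exact Group.nilpotent_of_surjective h hs
  have hsn := systemNormalizer_map_mk hK N
  have h1 := ih _ hlt (G ⧸ N) rfl (F.map f) hFbarnil hGbarnil (C.map f) _ (isCarter_map_mk hC N)
    (isComplementSystem_map_mk hK N) (by rw [hsn]; exact Subgroup.map_mono hle)
  rw [hsn] at h1
  obtain ⟨d, hd, hdx⟩ := h1 ⟨x, hx, rfl⟩
  have hn : d⁻¹ * x ∈ N := QuotientGroup.eq.mp hdx
  have hxeq : x = d * (d⁻¹ * x) := by group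
  rw [hxeq]
  refine Subgroup.mul_mem _ hd ?_
  by_cases hcen : N ≤ center G
  · rw [Cfsg.systemNormalizer, Subgroup.mem_iInf]
    intro p
    rw [mem_normalizer_iff]
    intro y
    have h2 := (mem_center_iff.mp (hcen hn)) y
    have h3 : (d⁻¹ * x) * y * (d⁻¹ * x)⁻¹ = y := by
      rw [← h2]
      group
    rw [h3]
  · have h2 := inf_eq_bot_of_not_central hF hGF hN hcen hC
    have h3 : d⁻¹ * x ∈ C ⊓ N := ⟨C.mul_mem (C.inv_mem (hle hd)) hx, hn⟩
    rw [h2, mem_bot] at h3
    rw [h3]
    exact Subgroup.one_mem _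

end Cfsg.Agent.Lib.Solvable.SystemNormalizer
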